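import Cfsg.Agent.LeadWork.TitsSimple
import Cfsg.Agent.FGS2.Tits.Table

/-! Words in all root elements of F4 over two elements, acting on bit vectors. -/

set_option autoImplicit false
set_option maxRecDepth 100000

namespace Cfsg.Agent.FGS2.Tits

open Cfsg.Lie Cfsg.Agent.Chev Cfsg.Agent.Chev.Ree4 Cfsg.Agent.LeadWork.ReeInvolutions
open Cfsg.Agent.LeadWork.E6Fold (code code_lt exists_code code_injective bv ev ev_nil ev_cons colL ev_colL)
open scoped Matrix

local notation "K₂" => ZMod 2

/-- One root element on a bit vector. -/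
def stepA (r m : ℕ) : ℕ :=
  Nat.xor m (((tDelta.getD r []).filter fun p => m.testBit p.1).foldr (fun p acc => Nat.xor p.2 acc) 0)

/-- A word on a bit vector. -/
def runA : List ℕ → ℕ → ℕ
  | [], m => m
  | r :: rs, m => stepA r (runA rs m)

theorem table_all : ∀ r < 48, ∀ c < 52, stepA r (2 ^ c) = maskOf (colL chevF4 r c) := by decide +kernel

theorem stepA_eq (r m : ℕ) : stepA r m =
    Nat.xor m ((tDelta.getD r []).foldr (fun p acc => Nat.xor (if m.testBit p.1 then p.2 else 0) acc) 0) := by
  unfold stepA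
  congr 1
  show List.foldr (fun (p : ℕ × ℕ) acc => p.2 ^^^ acc) 0 _ = List.foldr (fun (p : ℕ × ℕ) acc => (if m.testBit p.1 then p.2 else 0) ^^^ acc) 0 _
  induction tDelta.getD r [] with
  | nil => rfl
  | cons p l ih => cases h : m.testBit p.1 <;> simp [List.filter_cons, h, ih]

theorem stepA_xor (r a b : ℕ) : stepA r (Nat.xor a b) = Nat.xor (stepA r a) (stepA r b) := by
  rw [stepA_eq, stepA_eq, stepA_eq]
  have e : (fun (p : ℕ × ℕ) acc => Nat.xor (if (Nat.xor a b).testBit p.1 then p.2 else 0) acc) =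
      fun p acc => Nat.xor (Nat.xor (if a.testBit p.1 then p.2 else 0) (if b.testBit p.1 then p.2 else 0)) acc := by
    funext p acc
    congr 1
    show (if (a ^^^ b).testBit p.1 then p.2 else 0) = (if a.testBit p.1 then p.2 else 0) ^^^ (if b.testBit p.1 then p.2 else 0)
    rw [Nat.testBit_xor]
    cases a.testBit p.1 <;> cases b.testBit p.1 <;> simp
  rw [e, foldr_xor_map]
  show (a ^^^ b) ^^^ (_ ^^^ _) = (a ^^^ _) ^^^ (b ^^^ _)
  ac_rfl

theorem stepA_zero (r : ℕ) : stepA r 0 = 0 := by
  unfold stepA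
  simp

theorem step_ok {r : ℕ} (hr : r < 48) : ∀ m, m < 2 ^ 52 →
    chevF4.x K₂ r 1 *ᵥ vec m = vec (stepA r m) ∧ stepA r m < 2 ^ 52 := by
  have hr48 := hr
  have hcol := table_all r hr
  have hcol2 : ∀ r < 48, ∀ c < 52, stepA r (2 ^ c) < 2 ^ 52 := by decide +kernel
  have key : ∀ k ≤ 52, ∀ m, m < 2 ^ k → chevF4.x K₂ r 1 *ᵥ vec m = vec (stepA r m) ∧ stepA r m < 2 ^ 52 := by
    intro k
    induction k with
    | zero =>
      intro _ m hm
      rw [pow_zero, Nat.lt_one_iff] at hm
      subst hm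
      rw [vec_zero, Matrix.mulVec_zero, stepA_zero, vec_zero]
      exact ⟨rfl, by norm_num⟩
    | succ k ih =>
      intro hk m hm
      by_cases hbit : m.testBit k
      · have e : m = Nat.xor (2 ^ k) (m - 2 ^ k) := by
          show m = 2 ^ k ^^^ (m - 2 ^ k)
          have h1 : 2 ^ k ≤ m := Nat.ge_two_pow_of_testBit hbit
          have h2 : m - 2 ^ k < 2 ^ k := by rw [pow_succ] at hm; omega
          apply Nat.eq_of_testBit_eq
          intro i
          have hmi : m.testBit i = (2 ^ k + (m - 2 ^ k)).testBit i := by rw [Nat.add_sub_cancel' h1]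
          rw [Nat.testBit_xor, Nat.testBit_two_pow, hmi]
          rcases lt_trichotomy i k with h | h | h
          · rw [Nat.testBit_two_pow_add_gt h]; simp [Nat.ne_of_gt h]
          · subst h; rw [Nat.testBit_two_pow_add_eq]; simp [Nat.testBit_lt_two_pow h2]
          · rw [Nat.testBit_lt_two_pow (lt_of_lt_of_le (by rw [pow_succ]; omega : 2 ^ k + (m - 2 ^ k) < 2 ^ (k + 1))
              (Nat.pow_le_pow_right two_pos h)), Nat.testBit_lt_two_pow (lt_of_lt_of_le h2
              (Nat.pow_le_pow_right two_pos h.le))]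
            simp [Nat.ne_of_lt h]
        obtain ⟨i1, i2⟩ := ih (by omega) (m - 2 ^ k) (by rw [pow_succ] at hm; omega)
        rw [e, stepA_xor, vec_xor, vec_xor, Matrix.mulVec_add, i1, vec_pow,
          ev_colL cF.{0} (show r < chevF4.nroots by rw [dims.2]; exact hr48)
            (show k < chevF4.rank + chevF4.nroots by rw [dims.1, dims.2]; omega) (1 : K₂), ev_mask, hcol k (by omega)]
        exact ⟨rfl, Nat.xor_lt_two_pow (hcol k (by omega) ▸ hcol2 r hr k (by omega)) i2⟩
      · refine ih (by omega) m ?_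
        by_contra hge
        push Not at hge
        have h2 : m - 2 ^ k < 2 ^ k := by rw [pow_succ] at hm; omega
        apply hbit
        rw [show m = 2 ^ k + (m - 2 ^ k) by omega, Nat.testBit_two_pow_add_eq, Nat.testBit_lt_two_pow h2]
        rfl
  exact fun m hm => key 52 le_rfl m hm


/-- All letters are roots. -/
abbrev Ok (w : List ℕ) : Prop := ∀ r ∈ w, r < 48

theorem run_vec : ∀ {rs : List ℕ}, Ok rs → ∀ m < 2 ^ 52,
    (word rs).1 *ᵥ vec m = vec (runA rs m) ∧ runA rs m < 2 ^ 52 := by
  intro rs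
  induction rs with
  | nil => intro _ m hm; exact ⟨by simp [word, Cert.wu, runA], hm⟩
  | cons r rs ih =>
    intro h m hm
    have hr : r < 48 := h r List.mem_cons_self
    obtain ⟨i1, i2⟩ := ih (fun x hx => h x (List.mem_cons_of_mem _ hx)) m hm
    obtain ⟨s1, s2⟩ := step_ok hr _ i2
    refine ⟨?_, s2⟩
    rw [show r :: rs = [r] ++ rs from rfl, word_append, Units.val_mul, ← Matrix.mulVec_mulVec, i1]
    show ((cF.{0}).wu [(r, (1 : K₂))]).1 *ᵥ _ = _
    rw [Cert.wu, List.map_singleton, List.prod_singleton, Cert.coe_xu, s1]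
    rfl

/-- Equality of two words as maps. -/
def eqR (u w : List ℕ) : Bool := (List.range 52).all fun c => runA u (2 ^ c) == runA w (2 ^ c)

theorem eqR_sound {u w : List ℕ} (hu : Ok u) (hw : Ok w) (h : eqR u w = true) : word u = word w := by
  refine Units.ext (Matrix.ext_of_mulVec_single fun k => ?_)
  have e : (Pi.single k 1 : chevF4.Idx → K₂) = vec (2 ^ code chevF4 k) := by
    rw [vec_pow]
    funext x
    by_cases h : x = k
    · subst h; simp [bv]
    · simp [bv, h, code_injective.ne h]
  have hc : 2 ^ code chevF4 k < 2 ^ 52 := Nat.pow_lt_pow_right one_lt_two (code52 k)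
  have h' := List.all_eq_true.1 h _ (List.mem_range.2 (code52 k))
  rw [beq_iff_eq] at h'
  rw [e, (run_vec hu _ hc).1, (run_vec hw _ hc).1, h']

theorem ne_sound {u w : List ℕ} (hu : Ok u) (hw : Ok w) (h : eqR u w = false) : word u ≠ word w := by
  intro e
  obtain ⟨c, hc, hne⟩ := List.all_eq_false.1 h
  rw [List.mem_range] at hc
  refine hne (beq_iff_eq.2 ?_)
  have hm : 2 ^ c < 2 ^ 52 := Nat.pow_lt_pow_right one_lt_two hc
  obtain ⟨a1, a2⟩ := run_vec hu _ hm
  obtain ⟨b1, b2⟩ := run_vec hw _ hm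
  rw [e] at a1
  have hv := a1.symm.trans b1
  refine Nat.eq_of_testBit_eq fun i => ?_
  by_cases hi : i < 52
  · exact testBit_of_vec hv hi
  · rw [Nat.testBit_lt_two_pow (lt_of_lt_of_le a2 (Nat.pow_le_pow_right two_pos (by omega))),
      Nat.testBit_lt_two_pow (lt_of_lt_of_le b2 (Nat.pow_le_pow_right two_pos (by omega)))]

/-- The coordinates with a set bit. -/
def bitsOf (m : ℕ) : List ℕ := (List.range 52).filter fun i => m.testBit i

theorem pairs_ok : ∀ r < 48, tPairs.getD r [] =
    (tDelta.getD r []).flatMap fun p => (bitsOf p.2).map fun i => (p.1, i) := by decide +kernel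

theorem tDelta_lt : ∀ r < 48, ∀ p ∈ tDelta.getD r [], p.1 < 52 := by decide +kernel

/-- A row of a packed matrix. -/
def row (M j : ℕ) : ℕ := (M >>> (64 * j)) &&& (2 ^ 64 - 1)

/-- The sum of moved rows. -/
def moved (M : ℕ) (l : List (ℕ × ℕ)) : ℕ := l.foldr (fun p acc => (row M p.1 <<< (64 * p.2)) ^^^ acc) 0

/-- One root element on a packed matrix of 52 columns. -/
def stepP (r M : ℕ) : ℕ := M ^^^ moved M (tPairs.getD r [])

/-- A word on the packed identity matrix. -/
def runP : List ℕ → ℕ
  | [] => (List.range 52).foldr (fun c acc => 2 ^ (65 * c) ^^^ acc) 0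
  | r :: rs => stepP r (runP rs)

theorem runP_nil : ∀ i < 52, ∀ c < 52, (runP []).testBit (64 * i + c) = (2 ^ c).testBit i := by decide +kernel

theorem moved_append (M : ℕ) (a b : List (ℕ × ℕ)) : moved M (a ++ b) = moved M a ^^^ moved M b := by
  induction a with
  | nil => simp [moved]
  | cons x a ih =>
    show (row M x.1 <<< (64 * x.2)) ^^^ moved M (a ++ b) = ((row M x.1 <<< (64 * x.2)) ^^^ moved M a) ^^^ moved M b
    rw [ih, Nat.xor_assoc]

theorem row_bit (M j k : ℕ) : (row M j).testBit k = (M.testBit (64 * j + k) && decide (k < 64)) := by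
  rw [row, Nat.testBit_and, Nat.testBit_shiftRight, Nat.testBit_two_pow_sub_one]

theorem moved_bit (M j : ℕ) {i c : ℕ} (hc : c < 52) : ∀ l : List ℕ, l.Nodup →
    (moved M (l.map fun t => (j, t))).testBit (64 * i + c) = (decide (i ∈ l) && M.testBit (64 * j + c))
  | [], _ => by simp [moved]
  | t :: l, h => by
    rw [List.nodup_cons] at h
    show ((row M j <<< (64 * t)) ^^^ moved M (l.map fun t => (j, t))).testBit _ = _
    rw [Nat.testBit_xor, moved_bit M j hc l h.2, Nat.testBit_shiftLeft]
    by_cases hit : i = t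
    · subst hit
      simp [h.1, row_bit, show 64 * i ≤ 64 * i + c by omega,
        show c < 64 by omega]
    · rcases Nat.lt_or_ge i t with hlt | hge
      · simp [show ¬ 64 * t ≤ 64 * i + c by omega, hit]
      · simp [show 64 * t ≤ 64 * i + c by omega, hit, row_bit,
          show ¬ 64 * i + c - 64 * t < 64 by omega]

theorem stepP_bit {r : ℕ} (hr : r < 48) (M : ℕ) (m : ℕ) {c : ℕ} (hc : c < 52)
    (h : ∀ i < 52, M.testBit (64 * i + c) = m.testBit i) :
    ∀ i < 52, (stepP r M).testBit (64 * i + c) = (stepA r m).testBit i := by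
  intro i hi
  rw [stepP, stepA_eq]
  show (M ^^^ _).testBit _ = (m ^^^ _).testBit i
  rw [Nat.testBit_xor, Nat.testBit_xor, h i hi, pairs_ok r hr]
  congr 1
  have key : ∀ D : List (ℕ × ℕ), (∀ p ∈ D, p.1 < 52) →
      (moved M (D.flatMap fun p => (bitsOf p.2).map fun t => (p.1, t))).testBit (64 * i + c) =
        (D.foldr (fun p acc => Nat.xor (if m.testBit p.1 then p.2 else 0) acc) 0).testBit i := by
    intro D
    induction D with
    | nil => intro _; simp [moved]
    | cons p D ih =>
      intro hD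
      rw [List.flatMap_cons, moved_append, Nat.testBit_xor, ih fun q hq => hD q (List.mem_cons_of_mem _ hq),
        moved_bit M p.1 hc (bitsOf p.2) (List.nodup_range.filter _), h p.1 (hD p List.mem_cons_self), List.foldr_cons]
      show _ = ((if m.testBit p.1 then p.2 else 0) ^^^ _).testBit i
      rw [Nat.testBit_xor]
      congr 1
      cases hm : m.testBit p.1 <;> simp [bitsOf, hi]
  exact key _ (tDelta_lt r hr)

theorem runP_bit : ∀ {rs : List ℕ}, Ok rs → ∀ c < 52, ∀ i < 52,
    (runP rs).testBit (64 * i + c) = (runA rs (2 ^ c)).testBit i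
  | [], _, c, hc, i, hi => runP_nil i hi c hc
  | r :: rs, h, c, hc, i, hi =>
    stepP_bit (h r List.mem_cons_self) (runP rs) (runA rs (2 ^ c)) hc
      (fun j hj => runP_bit (fun x hx => h x (List.mem_cons_of_mem _ hx)) c hc j hj) i hi

/-- Equality of two words by packed matrices. -/
def eqP (u w : List ℕ) : Bool := runP u == runP w

theorem eqR_of_eqP {u w : List ℕ} (hu : Ok u) (hw : Ok w) (h : eqP u w = true) : eqR u w = true := by
  rw [eqP, beq_iff_eq] at h
  refine List.all_eq_true.2 fun c hc => beq_iff_eq.2 ?_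
  rw [List.mem_range] at hc
  have hm : 2 ^ c < 2 ^ 52 := Nat.pow_lt_pow_right one_lt_two hc
  refine Nat.eq_of_testBit_eq fun i => ?_
  by_cases hi : i < 52
  · rw [← runP_bit hu c hc i hi, ← runP_bit hw c hc i hi, h]
  · rw [Nat.testBit_lt_two_pow (lt_of_lt_of_le (run_vec hu _ hm).2 (Nat.pow_le_pow_right two_pos (by omega))),
      Nat.testBit_lt_two_pow (lt_of_lt_of_le (run_vec hw _ hm).2 (Nat.pow_le_pow_right two_pos (by omega)))]

theorem eqP_sound {u w : List ℕ} (hu : Ok u) (hw : Ok w) (h : eqP u w = true) : word u = word w :=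
  eqR_sound hu hw (eqR_of_eqP hu hw h)

end Cfsg.Agent.FGS2.Tits
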