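import Cfsg.Agent.FGS2.Tits.Act
import Cfsg.Agent.FGS2.Tits.Collect

/-! Elements of the derived subgroup of the Ree group over two elements given by words in root elements. -/

set_option autoImplicit false
set_option maxRecDepth 100000

namespace Cfsg.Agent.FGS2.Tits

open Cfsg.Lie Cfsg.Agent.Chev Cfsg.Agent.Chev.Ree4 Cfsg.Agent.LeadWork.ReeInvolutions

local notation "K₂" => ZMod 2

attribute [local irreducible] word

/-- The group. -/
abbrev Q : Type := Cfsg.Lie.TitsGroup

/-- The inclusion in the general linear group. -/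
noncomputable def val : Q →* GL chevF4.Idx K₂ :=
  (twistedF4 K₂ 1).subtype.comp (commutator ↥(twistedF4 K₂ 1)).subtype

theorem val_inj : Function.Injective val :=
  Subtype.val_injective.comp Subtype.val_injective

/-- The words giving elements of the group. -/
def Mem (w : List ℕ) : Prop := ∃ q : Q, val q = word w

open scoped Classical in
/-- The element of a word. -/
noncomputable def el (w : List ℕ) : Q := if h : Mem w then h.choose else 1

theorem val_el {w : List ℕ} (h : Mem w) : val (el w) = word w := by
  rw [el, dif_pos h]; exact h.choose_spec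

theorem Mem.nil : Mem [] := ⟨1, by rw [map_one, word_nil]⟩

theorem Mem.append {u w : List ℕ} (hu : Mem u) (hw : Mem w) : Mem (u ++ w) :=
  ⟨el u * el w, by rw [map_mul, val_el hu, val_el hw, word_append]⟩

theorem el_append {u w : List ℕ} (hu : Mem u) (hw : Mem w) : el (u ++ w) = el u * el w :=
  val_inj (by rw [val_el (hu.append hw), map_mul, val_el hu, val_el hw, word_append])

theorem el_nil : el [] = 1 := val_inj (by rw [val_el Mem.nil, map_one, word_nil])

theorem el_eq {u w : List ℕ} (hu : Mem u) (hw : Mem w) (ou : Ok u) (ow : Ok w) (h : eqR u w = true) :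
    el u = el w :=
  val_inj (by rw [val_el hu, val_el hw]; exact eqR_sound ou ow h)

theorem el_eqP {u w : List ℕ} (hu : Mem u) (hw : Mem w) (ou : Ok u) (ow : Ok w) (h : eqP u w = true) :
    el u = el w :=
  el_eq hu hw ou ow (eqR_of_eqP ou ow h)

theorem el_ne {u w : List ℕ} (hu : Mem u) (hw : Mem w) (ou : Ok u) (ow : Ok w) (h : eqR u w = false) :
    el u ≠ el w := fun e => ne_sound ou ow h (by rw [← val_el hu, ← val_el hw, e])

theorem tw_eq : tw K₂ 0 = twistedF4 K₂ 1 := by rw [tw, pow_zero]

theorem mem_of_psi {w : List ℕ} (h : word w ∈ tw K₂ 0) (h1 : psi (word w) h = 1) : Mem w := by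
  have key : ∀ (T : Subgroup (GL chevF4.Idx K₂)) (g : GL chevF4.Idx K₂) (hg : g ∈ T),
      Abelianization.of (⟨g, hg⟩ : T) = 1 → ∃ q : commutator ↥T, ((q : T) : GL chevF4.Idx K₂) = g := by
    intro T g hg he
    rw [← MonoidHom.mem_ker, Abelianization.ker_of] at he
    exact ⟨⟨_, he⟩, rfl⟩
  have := key _ _ h h1
  rw [tw_eq] at this
  exact this

theorem mem_of_invol {w : List ℕ} (ow : Ok w) (h : word w ∈ tw K₂ 0)
    (h2 : (eqR (w ++ w) [] && !(eqR w [])) = true) : Mem w := by
  simp only [Bool.and_eq_true, Bool.not_eq_true'] at h2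
  have on : Ok [] := fun r hr => by simp at hr
  rw [tw_eq] at h
  have e : orderOf (⟨word w, h⟩ : ↥(twistedF4 K₂ 1)) = 2 := by
    refine orderOf_eq_prime ?_ fun h1 => ne_sound ow on h2.2 ?_
    · refine Subtype.ext ?_
      show word w ^ 2 = 1
      rw [pow_two, ← word_append, ← word_nil]
      exact eqR_sound (fun r hr => (List.mem_append.1 hr).elim (ow r) (ow r)) on h2.1
    · rw [word_nil]; exact congrArg Subtype.val h1
  exact ⟨⟨_, Cfsg.Agent.LeadWork.ReeInvolutions.main _ e⟩, rfl⟩

/-- Four generating involutions. -/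
def tGens : List (List ℕ) := [[33, 24], [14, 23], [28, 30], [19, 17]]

theorem tGens_ok : ∀ w ∈ tGens, (∀ r ∈ w, r < 48) ∧ (eqR (w ++ w) [] && !(eqR w [])) = true := by decide +kernel

theorem tGens_tw : ∀ w ∈ tGens, word w ∈ tw K₂ 0 := by
  intro w hw
  simp only [tGens, List.mem_cons, List.not_mem_nil, or_false] at hw
  rcases hw with rfl | rfl | rfl | rfl
  · exact base_mem.1
  · have e : word [14, 23] = pE 0 14 23 (1 : K₂) := by rw [word_cons, word_cons, word_nil]; simp [pE]
    rw [e]; exact pE_neg_mem 0 1
  · exact base_mem.2.2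
  · have e : word [19, 17] = bE 0 20 22 19 17 (0 : K₂) 1 := by
      rw [word_cons, word_cons, word_nil]; simp [bE, Cert.xu_zero]
    rw [e]; exact bE_neg_mem 0 0 1

/-- The root word of a word in the generators. -/
def kw (w : List ℕ) : List ℕ := (w.map fun i => tGens.getD i []).flatten

theorem kw_mem : ∀ w : List ℕ, Mem (kw w)
  | [] => Mem.nil
  | i :: w => by
    show Mem (tGens.getD i [] ++ kw w)
    refine Mem.append ?_ (kw_mem w)
    by_cases hi : i < tGens.length
    · rw [List.getD_eq_getElem _ _ hi]
      have h := List.getElem_mem hi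
      exact mem_of_invol (tGens_ok _ h).1 (tGens_tw _ h) (tGens_ok _ h).2
    · rw [List.getD_eq_default _ _ (not_lt.1 hi)]; exact Mem.nil

theorem kw_ok : ∀ w : List ℕ, Ok (kw w)
  | [] => fun r hr => by simp [kw] at hr
  | i :: w => fun r hr => by
    rcases List.mem_append.1 (show r ∈ tGens.getD i [] ++ kw w from hr) with h | h
    · by_cases hi : i < tGens.length
      · rw [List.getD_eq_getElem _ _ hi] at h
        exact (tGens_ok _ (List.getElem_mem hi)).1 r h
      · rw [List.getD_eq_default _ _ (not_lt.1 hi)] at h; simp at h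
    · exact kw_ok w r h

/-- The root word of a word in the letters of the Sylow subgroup. -/
def lw (w : List ℕ) : List ℕ := (w.map fun i => lett.getD i []).flatten

/-- A word in the letters lies in the derived subgroup. -/
def lwOK (w : List ℕ) : Bool :=
  (w.all fun i => decide (i < 12)) && (w.filter fun i => (lett.getD i []).length == 3).length % 2 == 0

theorem lw_mem {w : List ℕ} (h : lwOK w = true) : Mem (lw w) := by
  simp only [lwOK, Bool.and_eq_true, List.all_eq_true, decide_eq_true_eq, beq_iff_eq] at h
  have hm : ∀ l ∈ w.map (fun i => lett.getD i []), l ∈ lett := by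
    intro l hl
    obtain ⟨i, hi, rfl⟩ := List.mem_map.1 hl
    rw [List.getD_eq_getElem _ _ (show i < lett.length from h.1 i hi)]
    exact List.getElem_mem _
  refine mem_of_psi (w := lw w) (flat_mem hm).2 ?_
  refine (psi_word hm).trans ?_
  have : outer (w.map fun i => lett.getD i []) % 2 = 0 := by
    rw [outer, List.filter_map, List.length_map]; exact h.2
  obtain ⟨j, hj⟩ := Nat.dvd_of_mod_eq_zero this
  rw [hj, pow_mul, pow_two, psi_bases.2.2, one_pow]

theorem lw_ok {w : List ℕ} (h : lwOK w = true) : Ok (lw w) := by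
  intro r hr
  simp only [lwOK, Bool.and_eq_true, List.all_eq_true, decide_eq_true_eq] at h
  obtain ⟨l, hl, hrl⟩ := List.mem_flatten.1 hr
  obtain ⟨i, hi, rfl⟩ := List.mem_map.1 hl
  rw [List.getD_eq_getElem _ _ (show i < lett.length from h.1 i hi)] at hrl
  have := (lett_used _ (List.getElem_mem _) r hrl).1
  revert this
  simp only [used, List.mem_cons, List.not_mem_nil, or_false]
  omega

theorem card_Q : Nat.card Q = 17971200 := by
  have key : ∀ T : Subgroup (GL chevF4.Idx K₂), T = tw K₂ 0 → Nat.card ↥(commutator ↥T) = 17971200 := by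
    rintro T rfl; exact Cfsg.Agent.LeadWork.TitsSimple.card_derived
  exact key _ tw_eq.symm

end Cfsg.Agent.FGS2.Tits
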