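import Cfsg.Agent.FGS2.Tits.Data
import Cfsg.Agent.FGS2.Tits.Basic

/-! Checks on bit vectors for the Schur multiplier of the Tits group. -/

set_option autoImplicit false
set_option maxRecDepth 100000

namespace Cfsg.Agent.FGS2.Tits

open Cfsg.Agent.LeadWork.ReeInvolutions (lett)

/-- The root word of a generator of the Sylow subgroup. -/
def eR (a : ℕ) : List ℕ := lw (tiE.getD a [])

/-- The root word of a product of generators. -/
def flat (w : List ℕ) : List ℕ := (w.map eR).flatten

/-- The root word of a class representative. -/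
def repR (c : ℕ) : List ℕ := lw (tiReps.getD c [])

/-- The certificate. -/
def cert : Collect.Cert := ⟨tiTab, tiSqs, tiFus, tiOvs, tiShift, tiSel⟩

theorem cert_ok : cert.ok = true := by decide +kernel

theorem lw_all : ((List.range 11).all fun a => lwOK (tiE.getD a [])) = true ∧
    ((List.range 2).all fun c => lwOK (tiReps.getD c [])) = true ∧
    tiE.length = 11 ∧ tiReps.length = 2 := by decide +kernel

theorem rel_ok : ((List.range 11).all fun a => eqP (eR a ++ eR a) (flat (Collect.word tiTab a a)) &&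
    (List.range 11).all fun b => !(decide (b < a)) ||
      eqP (eR a ++ eR b) (eR b ++ flat (Collect.word tiTab a b))) = true := by decide +kernel

theorem reps_sq : ((List.range 2).all fun c => eqP (repR c ++ repR c) []) = true := by decide +kernel

theorem sqs_ok : tiSqs.length = tiSqsWit.length ∧ ((List.range tiSqs.length).all fun i =>
    eqP (kw (tiSqsWit.getD i []) ++ repR (tiSqs.getD i ([], 0)).2)
      (flat (tiSqs.getD i ([], 0)).1 ++ kw (tiSqsWit.getD i []))) = true := by decide +kernel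

theorem fus_ok : tiFus.length = tiFusBy.length ∧ ((List.range tiFus.length).all fun i =>
    eqP (kw (tiFusBy.getD i []) ++ flat (tiFus.getD i ([], [], [], [])).1)
      (flat (tiFus.getD i ([], [], [], [])).2.2.1 ++ kw (tiFusBy.getD i [])) &&
    eqP (kw (tiFusBy.getD i []) ++ flat (tiFus.getD i ([], [], [], [])).2.1)
      (flat (tiFus.getD i ([], [], [], [])).2.2.2 ++ kw (tiFusBy.getD i []))) = true := by decide +kernel

theorem outer_ok : eqP (lw [0] ++ lw [0]) (flat tiOutSq) = true ∧
    ((List.range 11).all fun a => eqP (eR a ++ lw [0]) (lw [0] ++ flat (tiOutConj.getD a []))) = true ∧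
    ((List.range 12).all fun i => eqP (lett.getD i [])
      ((if (tiLets.getD i (false, [])).1 then lw [0] else []) ++ flat (tiLets.getD i (false, [])).2)) = true ∧
    (tiOutSq :: tiOutConj ++ tiLets.map Prod.snd).all Collect.small = true := by decide +kernel

/-- Words of the three elements used at the prime three. -/
def w3 (i : ℕ) : List ℕ := tiThree.getD i []

/-- Words of the three elements used at the prime five. -/
def w5 (i : ℕ) : List ℕ := tiFive.getD i []

/-- A commutator word. -/
def cW : List ℕ := w3 0 ++ w3 1 ++ (w3 0).reverse ++ (w3 1).reverse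

theorem three_ok :
    eqP (kw (w3 0 ++ (w3 0).reverse)) [] = true ∧ eqP (kw (w3 1 ++ (w3 1).reverse)) [] = true ∧
    eqP (kw (w3 0 ++ w3 0 ++ w3 0)) [] = true ∧ eqP (kw (w3 1 ++ w3 1 ++ w3 1)) [] = true ∧
    eqP (kw (cW ++ cW ++ cW)) [] = true ∧ eqR (kw cW) [] = false ∧
    eqP (kw (w3 0 ++ cW)) (kw (cW ++ w3 0)) = true ∧ eqP (kw (w3 1 ++ cW)) (kw (cW ++ w3 1)) = true ∧
    eqP (kw (w3 2 ++ cW)) (kw (cW ++ w3 2)) = true ∧
    eqP (kw (w3 2 ++ w3 0)) (kw ((w3 0).reverse ++ w3 2)) = true ∧
    eqP (kw (w3 2 ++ w3 1)) (kw ((w3 1).reverse ++ w3 2)) = true := by decide +kernel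

theorem five_ok :
    eqP (kw (w5 0 ++ w5 0 ++ w5 0 ++ w5 0 ++ w5 0)) [] = true ∧
    eqP (kw (w5 1 ++ w5 1 ++ w5 1 ++ w5 1 ++ w5 1)) [] = true ∧
    eqP (kw (w5 0 ++ w5 1)) (kw (w5 1 ++ w5 0)) = true ∧ eqR (kw (w5 0)) [] = false ∧
    ((List.range 5).all fun i => !(eqR (kw (w5 1)) (kw (List.replicate i (w5 0)).flatten))) = true ∧
    eqP (kw (w5 2 ++ w5 0)) (kw (w5 1 ++ w5 2)) = true ∧
    eqP (kw (w5 2 ++ w5 1)) (kw (w5 0 ++ w5 2)) = true := by decide +kernel

end Cfsg.Agent.FGS2.Tits
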