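import Cfsg.Agent.FGS2.Tits.Checks
import Cfsg.Agent.FGS2.J2.SchurTwoClass
import Cfsg.Agent.FGS2.SchurTools

/-! The Schur multiplier of the Tits group is trivial. -/

set_option autoImplicit false
set_option maxRecDepth 100000

namespace Cfsg.Agent.FGS2.Tits

open Cfsg.Lie Cfsg.Agent.Chev Cfsg.Agent.Chev.Ree4 Cfsg.Agent.LeadWork.ReeInvolutions
open Cfsg.Agent.FGS4.SchurSylow
open scoped commutatorElement

attribute [local irreducible] word

local notation "K₂" => ZMod 2

universe u

instance finite_Q : Finite Q := Nat.finite_of_card_ne_zero (by rw [card_Q]; norm_num)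

/-- A generator of the Sylow subgroup. -/
noncomputable def eG (a : ℕ) : Q := el (eR a)

/-- A class representative. -/
noncomputable def cls (c : ℕ) : Q := el (repR c)

theorem lwOK_nil : lwOK [] = true := by decide +kernel

theorem lwOK_E (a : ℕ) : lwOK (tiE.getD a []) = true := by
  by_cases ha : a < 11
  · exact List.all_eq_true.1 lw_all.1 a (List.mem_range.2 ha)
  · rw [List.getD_eq_default _ _ (by rw [lw_all.2.2.1]; omega)]; exact lwOK_nil

theorem lwOK_rep (c : ℕ) : lwOK (tiReps.getD c []) = true := by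
  by_cases hc : c < 2
  · exact List.all_eq_true.1 lw_all.2.1 c (List.mem_range.2 hc)
  · rw [List.getD_eq_default _ _ (by rw [lw_all.2.2.2]; omega)]; exact lwOK_nil

theorem eR_Mem (a : ℕ) : Mem (eR a) := lw_mem (lwOK_E a)

theorem eR_Ok (a : ℕ) : Ok (eR a) := lw_ok (lwOK_E a)

theorem flat_cons (a : ℕ) (w : List ℕ) : flat (a :: w) = eR a ++ flat w := rfl

theorem flat_Mem : ∀ w : List ℕ, Mem (flat w)
  | [] => Mem.nil
  | a :: w => (eR_Mem a).append (flat_Mem w)

theorem Ok.append {u w : List ℕ} (hu : Ok u) (hw : Ok w) : Ok (u ++ w) := fun r hr =>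
  (List.mem_append.1 hr).elim (hu r) (hw r)

theorem ok_nil : Ok [] := fun r hr => by simp at hr

theorem flat_Ok : ∀ w : List ℕ, Ok (flat w)
  | [] => ok_nil
  | a :: w => (eR_Ok a).append (flat_Ok w)

theorem ev_eG : ∀ w : List ℕ, Collect.ev eG w = el (flat w)
  | [] => el_nil.symm
  | a :: w => by
    rw [Collect.ev_cons, ev_eG w, flat_cons, el_append (eR_Mem a) (flat_Mem w)]
    rfl

theorem eG_rel (a b : ℕ) (hb : b < a) (ha : a < 11) :
    eG a * eG b = eG b * Collect.ev eG (Collect.word cert.tab a b) := by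
  have h := List.all_eq_true.1 rel_ok a (List.mem_range.2 ha)
  rw [Bool.and_eq_true] at h
  have h' := List.all_eq_true.1 h.2 b (List.mem_range.2 (hb.trans ha))
  simp only [decide_eq_true hb, Bool.not_true, Bool.false_or] at h'
  rw [ev_eG, eG, eG, ← el_append (u := eR a) (eR_Mem a) (eR_Mem b),
    ← el_append (u := eR b) (eR_Mem b) (flat_Mem _)]
  exact el_eqP ((eR_Mem a).append (eR_Mem b)) ((eR_Mem b).append (flat_Mem _))
    ((eR_Ok a).append (eR_Ok b)) ((eR_Ok b).append (flat_Ok _)) h'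

theorem eG_sqr (a : ℕ) (ha : a < 11) : eG a * eG a = Collect.ev eG (Collect.word cert.tab a a) := by
  have h := List.all_eq_true.1 rel_ok a (List.mem_range.2 ha)
  rw [Bool.and_eq_true] at h
  rw [ev_eG, eG, ← el_append (u := eR a) (eR_Mem a) (eR_Mem a)]
  exact el_eqP ((eR_Mem a).append (eR_Mem a)) (flat_Mem _)
    ((eR_Ok a).append (eR_Ok a)) (flat_Ok _) h.1

theorem cls_sq (c : ℕ) (hc : c < 2) : cls c * cls c = 1 := by
  have hm : Mem (repR c) := lw_mem (lwOK_rep c)
  rw [cls, ← el_append hm hm, ← el_nil]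
  exact el_eqP (hm.append hm) Mem.nil ((lw_ok (lwOK_rep c)).append (lw_ok (lwOK_rep c))) ok_nil
    (List.all_eq_true.1 reps_sq c (List.mem_range.2 hc))

theorem conj_move {k x y : List ℕ} (mk : Mem k) (mx : Mem x) (my : Mem y) (ok : Ok k) (ox : Ok x) (oy : Ok y)
    (h : eqP (k ++ x) (y ++ k) = true) : el k * el x = el y * el k := by
  rw [← el_append mk mx, ← el_append my mk]
  exact el_eqP (mk.append mx) (my.append mk) (ok.append ox) (oy.append ok) h

theorem sqs_conj (q : List ℕ × ℕ) (hq : q ∈ cert.sqs) : ∃ k : Q, k * cls q.2 * k⁻¹ = Collect.ev eG q.1 := by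
  obtain ⟨i, hi, rfl⟩ := List.getElem_of_mem hq
  have h := List.all_eq_true.1 sqs_ok.2 i (List.mem_range.2 hi)
  rw [List.getD_eq_getElem tiSqs _ hi] at h
  refine ⟨el (kw (tiSqsWit.getD i [])), mul_inv_eq_iff_eq_mul.2 ?_⟩
  rw [ev_eG]
  exact conj_move (kw_mem _) (lw_mem (lwOK_rep _)) (flat_Mem _) (kw_ok _) (lw_ok (lwOK_rep _)) (flat_Ok _) h

theorem fus_conj (q : List ℕ × List ℕ × List ℕ × List ℕ) (hq : q ∈ cert.fus) :
    ∃ g : Q, g * Collect.ev eG q.1 = Collect.ev eG q.2.2.1 * g ∧
      g * Collect.ev eG q.2.1 = Collect.ev eG q.2.2.2 * g := by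
  obtain ⟨i, hi, rfl⟩ := List.getElem_of_mem hq
  have h := List.all_eq_true.1 fus_ok.2 i (List.mem_range.2 hi)
  rw [List.getD_eq_getElem tiFus _ hi, Bool.and_eq_true] at h
  refine ⟨el (kw (tiFusBy.getD i [])), ?_, ?_⟩ <;> rw [ev_eG, ev_eG]
  · exact conj_move (kw_mem _) (flat_Mem _) (flat_Mem _) (kw_ok _) (flat_Ok _) (flat_Ok _) h.1
  · exact conj_move (kw_mem _) (flat_Mem _) (flat_Mem _) (kw_ok _) (flat_Ok _) (flat_Ok _) h.2

theorem tabOK_cert : Collect.tabOK cert.tab = true := by
  have h := cert_ok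
  simp only [Collect.Cert.ok, Bool.and_eq_true] at h
  exact h.1.1.1.1

/-- The generators in the linear group. -/
noncomputable def gG (a : ℕ) : GL chevF4.Idx K₂ := word (eR a)

theorem val_eG (a : ℕ) : val (eG a) = gG a := val_el (eR_Mem a)

theorem word_flat_mem : ∀ w : List ℕ, Collect.small w = true →
    word (flat w) ∈ Subgroup.closure (Collect.tail gG 0)
  | [], _ => by rw [show flat [] = [] from rfl, word_nil]; exact one_mem _
  | a :: w, h => by
    simp only [Collect.small, List.all_cons, Bool.and_eq_true, decide_eq_true_eq] at h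
    rw [flat_cons, word_append]
    exact mul_mem (Subgroup.subset_closure ⟨a, Nat.zero_le _, h.1, rfl⟩) (word_flat_mem w h.2)

theorem getD_all {α : Type*} {P : α → Bool} {l : List α} (h : l.all P = true) {d : α} (hd : P d = true) (i : ℕ) :
    P (l.getD i d) = true := by
  by_cases hi : i < l.length
  · rw [List.getD_eq_getElem _ _ hi]; exact List.all_eq_true.1 h _ (List.getElem_mem hi)
  · rwa [List.getD_eq_default _ _ (not_lt.1 hi)]

theorem card_tail : Nat.card (Subgroup.closure (Collect.tail eG 0)) = 2048 := by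
  refine le_antisymm (Collect.card_tail_le tabOK_cert eG eG_sqr eG_rel) ?_
  have himg : (Subgroup.closure (Collect.tail eG 0)).map val = Subgroup.closure (Collect.tail gG 0) := by
    rw [MonoidHom.map_closure]
    congr 1
    ext x
    constructor
    · rintro ⟨_, ⟨j, h0, hj, rfl⟩, rfl⟩
      exact ⟨j, h0, hj, val_eG j⟩
    · rintro ⟨j, h0, hj, rfl⟩
      exact ⟨eG j, ⟨j, h0, hj, rfl⟩, val_eG j⟩
  rw [← Subgroup.card_map_of_injective val_inj, himg]
  obtain ⟨hsq, hcj, hlt, hsm⟩ := outer_ok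
  have hs := List.all_eq_true.1 hsm
  set b : GL chevF4.Idx K₂ := word (lw [0]) with hb
  have o0 : Ok (lw [0]) := by decide +kernel
  have olett : ∀ i < 12, Ok (lett.getD i []) := by decide +kernel
  have hK := Collect.card_insert_le (E := b) (s := Collect.tail gG 0) (by
      rw [hb, ← word_append, eqP_sound (o0.append o0) (flat_Ok _) hsq]
      exact word_flat_mem _ (hs _ List.mem_cons_self))
    (by
      rintro x ⟨j, -, hj, rfl⟩
      have h := List.all_eq_true.1 hcj j (List.mem_range.2 hj)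
      rw [mul_assoc, hb, gG, ← word_append,
        eqP_sound ((eR_Ok j).append o0) (o0.append (flat_Ok _)) h, word_append, inv_mul_cancel_left]
      refine word_flat_mem _ (getD_all ?_ rfl j)
      exact List.all_eq_true.2 fun w hw => hs w (List.mem_cons_of_mem _ (List.mem_append_left _ hw)))
  set K := Subgroup.closure (insert b (Collect.tail gG 0))
  have hlett : ∀ l ∈ lett, word l ∈ K := by
    intro l hl
    obtain ⟨i, hi, rfl⟩ := List.getElem_of_mem hl
    have hi' : i < 12 := hi
    have h := List.all_eq_true.1 hlt i (List.mem_range.2 hi')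
    have hw : Collect.small (tiLets.getD i (false, [])).2 = true :=
      getD_all (P := fun p : Bool × List ℕ => Collect.small p.2) (l := tiLets)
        (List.all_eq_true.2 fun p hp => hs _ (List.mem_cons_of_mem _
          (List.mem_append_right _ (List.mem_map_of_mem hp)))) (d := (false, [])) rfl i
    have hif : Ok (if (tiLets.getD i (false, [])).1 then lw [0] else []) := by
      split_ifs
      · exact o0
      · exact ok_nil
    rw [show lett[i] = lett.getD i [] from (List.getD_eq_getElem _ _ hi).symm,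
      eqP_sound (olett i hi') (hif.append (flat_Ok _)) h, word_append]
    refine mul_mem ?_ (Subgroup.closure_mono (Set.subset_insert _ _) (word_flat_mem _ hw))
    split_ifs
    · exact Subgroup.subset_closure (Set.mem_insert _ _)
    · rw [word_nil]; exact one_mem _
  have hflat : ∀ L : List (List ℕ), (∀ l ∈ L, l ∈ lett) → word L.flatten ∈ K := by
    intro L
    induction L with
    | nil => intro _; rw [List.flatten_nil, word_nil]; exact one_mem _
    | cons l L ih =>
      intro h
      rw [List.flatten_cons, word_append]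
      exact mul_mem (hlett l (h l List.mem_cons_self)) (ih fun x hx => h x (List.mem_cons_of_mem _ hx))
  let f : {L : List (List ℕ) // L ∈ lett.sublists.toFinset} → K := fun L =>
    ⟨word L.1.flatten, hflat _ fun l hl => (List.mem_sublists.1 (List.mem_toFinset.1 L.2)).subset hl⟩
  have hf : Function.Injective f := fun L L' e => Subtype.ext
    (word_inj 0 (Nat.zero_le _) L.1 L'.1 (by rw [List.drop_zero]; exact List.mem_sublists.1 (List.mem_toFinset.1 L.2))
      (by rw [List.drop_zero]; exact List.mem_sublists.1 (List.mem_toFinset.1 L'.2)) (congrArg Subtype.val e))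
  have h4096 := Nat.card_le_card_of_injective f hf
  rw [Nat.card_eq_fintype_card, Fintype.card_coe,
    List.toFinset_card_of_nodup (List.nodup_sublists.2 (by decide : lett.Nodup)), List.length_sublists,
    show lett.length = 12 from rfl] at h4096
  have h5 : 4096 ≤ Nat.card K := le_trans (by norm_num) h4096
  omega

theorem no_two {Γ : Type u} [Group Γ] [Finite Γ] {σ : Γ →* Q} (hσ : Cfsg.IsStemExtension σ)
    (hker : ∀ w ∈ σ.ker, w * w = 1) {z : Γ} (hz : z ∈ σ.ker) (hzo : orderOf z = 2) : False := by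
  haveI : Fact (Nat.Prime 2) := ⟨Nat.prime_two⟩
  obtain ⟨S, hS⟩ := (IsPGroup.of_card (n := 11) (by rw [card_tail]; norm_num) :
    IsPGroup 2 (Subgroup.closure (Collect.tail eG 0))).exists_le_sylow
  have hS' : (S : Subgroup Q) = Subgroup.closure (Collect.tail eG 0) := (Subgroup.eq_of_le_of_card_ge hS (by
    rw [card_tail, J2.SchurTwoClass.sylow_card card_Q Nat.prime_two (k := 11) (by norm_num) (by norm_num) S]
    norm_num)).symm
  exact Collect.no_kernel hσ hker cert cert_ok eG eG_sqr eG_rel cls cls_sq sqs_conj fus_conj S hS'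
    (by rw [hS', card_tail]) hz hzo

theorem two_false {Γ : Type u} [Group Γ] [Finite Γ] {σ : Γ →* Q} (hσ : Cfsg.IsStemExtension σ) {z : Γ}
    (hz : z ∈ σ.ker) (hzo : orderOf z = 2) : False := by
  have hc : ∀ w ∈ σ.ker, ∀ y : Γ, y * w = w * y := fun w hw => Subgroup.mem_center_iff.1 (hσ.2.1 hw)
  letI : CommGroup σ.ker :=
    { (inferInstance : Group σ.ker) with mul_comm := fun x y => Subtype.ext (hc _ y.2 x) }
  let sqr : σ.ker →* σ.ker :=
    { toFun := fun x => x * x
      map_one' := one_mul 1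
      map_mul' := fun x y => by simp only [mul_assoc, mul_left_comm y x y] }
  obtain ⟨u, hu⟩ : ∃ u, u ∉ sqr.range := by
    by_contra h
    push Not at h
    have hs : Function.Surjective sqr := fun x => h x
    have hinj : Function.Injective sqr := Finite.injective_iff_surjective.2 hs
    have h1 : (⟨z, hz⟩ : σ.ker) = 1 := hinj (Subtype.ext (show z * z = 1 * 1 by
      rw [one_mul, ← pow_two, ← hzo]; exact pow_orderOf_eq_one z))
    have h2 : z = 1 := congrArg Subtype.val h1
    rw [h2, orderOf_one] at hzo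
    exact absurd hzo (by norm_num)
  set M : Subgroup Γ := sqr.range.map σ.ker.subtype with hM
  have hMk : M ≤ σ.ker := Subgroup.map_subtype_le _
  haveI hMn : M.Normal := ⟨fun n hn g => by rwa [hc n (hMk hn) g, mul_inv_cancel_right]⟩
  let τ := QuotientGroup.lift M σ hMk
  have hτk : ∀ q ∈ τ.ker, ∃ x ∈ σ.ker, QuotientGroup.mk' M x = q := by
    intro q hq
    obtain ⟨x, rfl⟩ := QuotientGroup.mk'_surjective M q
    exact ⟨x, hq, rfl⟩
  have hτ : Cfsg.IsStemExtension τ := by
    refine ⟨fun q => ?_, ?_, ?_⟩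
    · obtain ⟨x, hx⟩ := hσ.1 q
      exact ⟨QuotientGroup.mk' M x, hx⟩
    · intro q hq
      obtain ⟨x, hx, rfl⟩ := hτk q hq
      refine Subgroup.mem_center_iff.2 fun y => ?_
      obtain ⟨y, rfl⟩ := QuotientGroup.mk'_surjective M y
      rw [← map_mul, ← map_mul, hc x hx y]
    · intro q hq
      obtain ⟨x, hx, rfl⟩ := hτk q hq
      have := Subgroup.mem_map_of_mem (QuotientGroup.mk' M) (hσ.2.2 hx)
      rw [commutator_def, Subgroup.map_commutator,
        Subgroup.map_top_of_surjective _ (QuotientGroup.mk'_surjective M), ← commutator_def] at this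
      exact this
  have hsq : ∀ q ∈ τ.ker, q * q = 1 := by
    intro q hq
    obtain ⟨x, hx, rfl⟩ := hτk q hq
    rw [← map_mul, QuotientGroup.mk'_apply, QuotientGroup.eq_one_iff]
    exact ⟨sqr ⟨x, hx⟩, ⟨_, rfl⟩, rfl⟩
  have hu' : QuotientGroup.mk' M (u : Γ) ≠ 1 := by
    intro h
    rw [QuotientGroup.mk'_apply, QuotientGroup.eq_one_iff] at h
    obtain ⟨v, hv, hvu⟩ := h
    exact hu (Subtype.ext hvu ▸ hv)
  exact no_two hτ hsq (z := QuotientGroup.mk' M (u : Γ)) u.2
    (orderOf_eq_prime (by rw [pow_two]; exact hsq _ u.2) hu')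

/-- The element of a word in the generators. -/
noncomputable def kE (w : List ℕ) : Q := el (kw w)

theorem kw_append (u w : List ℕ) : kw (u ++ w) = kw u ++ kw w := by
  rw [kw, List.map_append, List.flatten_append, kw, kw]

theorem kE_append (u w : List ℕ) : kE (u ++ w) = kE u * kE w := by
  rw [kE, kw_append, el_append (kw_mem u) (kw_mem w), kE, kE]

theorem kE_nil : kE [] = 1 := el_nil

theorem kE_one {w : List ℕ} (h : eqP (kw w) [] = true) : kE w = 1 := by
  rw [← el_nil]; exact el_eqP (kw_mem w) Mem.nil (kw_ok w) ok_nil h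

theorem kE_eq {u w : List ℕ} (h : eqP (kw u) (kw w) = true) : kE u = kE w :=
  el_eqP (kw_mem u) (kw_mem w) (kw_ok u) (kw_ok w) h

theorem kE_ne {u w : List ℕ} (h : eqR (kw u) (kw w) = false) : kE u ≠ kE w :=
  el_ne (kw_mem u) (kw_mem w) (kw_ok u) (kw_ok w) h

theorem kE_rep (w : List ℕ) : ∀ i : ℕ, kE (List.replicate i w).flatten = kE w ^ i
  | 0 => by rw [pow_zero]; exact kE_nil
  | i + 1 => by rw [List.replicate_succ, List.flatten_cons, kE_append, kE_rep w i, pow_succ']

theorem three_false {Γ : Type u} [Group Γ] [Finite Γ] {σ : Γ →* Q} (hσ : Cfsg.IsStemExtension σ) {z : Γ}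
    (hz : z ∈ σ.ker) (hzo : orderOf z = 3) : False := by
  haveI : Fact (Nat.Prime 3) := ⟨Nat.prime_three⟩
  obtain ⟨i0, i1, u3, v3, c3, c1, uc, vc, gc, gu, gv⟩ := three_ok
  set u := kE (w3 0)
  set v := kE (w3 1)
  set g := kE (w3 2)
  have hu : u⁻¹ = kE (w3 0).reverse := inv_eq_of_mul_eq_one_right (by rw [← kE_append]; exact kE_one i0)
  have hv : v⁻¹ = kE (w3 1).reverse := inv_eq_of_mul_eq_one_right (by rw [← kE_append]; exact kE_one i1)
  have hcm : ⁅u, v⁆ = kE cW := by
    rw [commutatorElement_def, hu, hv, cW, kE_append, kE_append, kE_append]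
  have u3' : u ^ 3 = 1 := by rw [pow_succ, pow_two, ← kE_append, ← kE_append]; exact kE_one u3
  have v3' : v ^ 3 = 1 := by rw [pow_succ, pow_two, ← kE_append, ← kE_append]; exact kE_one v3
  have w3' : ⁅u, v⁆ ^ 3 = 1 := by rw [hcm, pow_succ, pow_two, ← kE_append, ← kE_append]; exact kE_one c3
  have w1 : ⁅u, v⁆ ≠ 1 := by rw [hcm, ← kE_nil]; exact kE_ne c1
  have uw : u * ⁅u, v⁆ = ⁅u, v⁆ * u := by rw [hcm, ← kE_append, ← kE_append]; exact kE_eq uc
  have vw : v * ⁅u, v⁆ = ⁅u, v⁆ * v := by rw [hcm, ← kE_append, ← kE_append]; exact kE_eq vc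
  have gw : g * ⁅u, v⁆ = ⁅u, v⁆ * g := by rw [hcm, ← kE_append, ← kE_append]; exact kE_eq gc
  have gu' : g * u * g⁻¹ = u⁻¹ := mul_inv_eq_iff_eq_mul.2 (by rw [hu, ← kE_append, ← kE_append]; exact kE_eq gu)
  have gv' : g * v * g⁻¹ = v⁻¹ := mul_inv_eq_iff_eq_mul.2 (by rw [hv, ← kE_append, ← kE_append]; exact kE_eq gv)
  obtain ⟨S, hS⟩ := J2.SchurTwoClass.three_sylow
    (fun S => J2.SchurTwoClass.sylow_card card_Q Nat.prime_three (k := 3) (by norm_num) (by norm_num) S)
    u3' v3' w3' rfl uw vw w1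
  exact stem_false_extraspecial hσ (by norm_num) S hS u3' v3' w3' w1 uw vw gu' gw gv' gw hz hzo

theorem five_false {Γ : Type u} [Group Γ] [Finite Γ] {σ : Γ →* Q} (hσ : Cfsg.IsStemExtension σ) {z : Γ}
    (hz : z ∈ σ.ker) (hzo : orderOf z = 5) : False := by
  haveI : Fact (Nat.Prime 5) := ⟨by norm_num⟩
  obtain ⟨u5, v5, uv, u1, hne, g1, g2⟩ := five_ok
  have p5 : ∀ x : Q, x ^ 5 = x * x * x * x * x := fun x => by simp only [pow_succ, pow_zero, one_mul]
  have u5' : kE (w5 0) ^ 5 = 1 := by
    rw [p5, ← kE_append, ← kE_append, ← kE_append, ← kE_append]; exact kE_one u5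
  have v5' : kE (w5 1) ^ 5 = 1 := by
    rw [p5, ← kE_append, ← kE_append, ← kE_append, ← kE_append]; exact kE_one v5
  have uv' : kE (w5 0) * kE (w5 1) = kE (w5 1) * kE (w5 0) := by
    rw [← kE_append, ← kE_append]; exact kE_eq uv
  obtain ⟨S, hS⟩ := J2.SchurTwoClass.five_sylow
    (fun S => J2.SchurTwoClass.sylow_card card_Q (by norm_num) (k := 2) (by norm_num) (by norm_num) S)
    u5' v5' uv' (by rw [← kE_nil]; exact kE_ne u1) (fun i hi => by
      rw [← kE_rep]
      refine kE_ne ?_
      simpa using List.all_eq_true.1 hne i (List.mem_range.2 hi))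
  exact stem_false_swap hσ (by norm_num) S (g := kE (w5 2)) hS u5' uv'
    (by rw [← kE_append, ← kE_append]; exact kE_eq g1) (by rw [← kE_append, ← kE_append]; exact kE_eq g2) hz hzo

theorem ker_bot {Γ : Type u} [Group Γ] [Finite Γ] (σ : Γ →* Q) (hσ : Cfsg.IsStemExtension σ) : σ.ker = ⊥ := by
  by_contra hne
  obtain ⟨q, hq, hqd⟩ := Nat.exists_prime_and_dvd (mt Subgroup.card_eq_one.1 hne)
  haveI := Fact.mk hq
  obtain ⟨⟨z, hz⟩, hzo⟩ := exists_prime_orderOf_dvd_card' q hqd
  rw [← Subgroup.orderOf_coe] at hzo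
  change orderOf z = q at hzo
  by_cases h2 : q = 2
  · subst h2; exact two_false hσ hz hzo
  by_cases h3 : q = 3
  · subst h3; exact three_false hσ hz hzo
  by_cases h5 : q = 5
  · subst h5; exact five_false hσ hz hzo
  obtain ⟨S⟩ := Sylow.nonempty (p := q) (G := Q)
  refine stem_false_cyclic hσ S ?_ hz hzo
  by_cases hd : q ∣ 17971200
  · have h13 : q = 13 := by
      rw [show (17971200 : ℕ) = 2 ^ 11 * 3 ^ 3 * 5 ^ 2 * 13 by norm_num] at hd
      have hp : ∀ {r : ℕ}, r.Prime → q ∣ r → q = r := fun hr h => (Nat.prime_dvd_prime_iff_eq hq hr).1 h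
      rcases (Nat.Prime.dvd_mul hq).1 hd with h | h
      rotate_left
      · exact hp (by norm_num) h
      rcases (Nat.Prime.dvd_mul hq).1 h with h | h
      rotate_left
      · exact absurd (hp (by norm_num) (hq.dvd_of_dvd_pow h)) h5
      rcases (Nat.Prime.dvd_mul hq).1 h with h | h
      · exact absurd (hp Nat.prime_two (hq.dvd_of_dvd_pow h)) h2
      · exact absurd (hp Nat.prime_three (hq.dvd_of_dvd_pow h)) h3
    subst h13
    exact isCyclic_of_prime_card (p := 13) (by
      rw [J2.SchurTwoClass.sylow_card card_Q hq (k := 1) (by norm_num) (by norm_num) S, pow_one])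
  · have h0 := J2.SchurTwoClass.sylow_card card_Q hq (k := 0) (by simp) (by rwa [pow_one]) S
    rw [pow_zero] at h0
    haveI : Subsingleton (S : Subgroup Q) := (Nat.card_eq_one_iff_unique.1 h0).1
    infer_instance

theorem schur_multiplier : Cfsg.HasCyclicSchurMultiplier Cfsg.Lie.TitsGroup 1 :=
  FGS2.hasCyclic_one_of_stem_ker_eq_bot fun _ _ _ σ hσ => ker_bot σ hσ

end Cfsg.Agent.FGS2.Tits
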